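import Cfsg.Agent.H725.BS.Two
import Cfsg.Agent.H877.BSgnDeg
import Cfsg.Agent.H740.K4.Scheme

/-!
# The 4371-dimensional character occurs twice in its symmetric cube (helper725)
-/

set_option autoImplicit false
set_option linter.constructorNameAsVariable false

namespace Cfsg.Agent.H725.BS

open Cfsg Cfsg.Agent.Characters.Core Cfsg.Agent.BabyM.Inst Cfsg.Agent.H816.IMEig Cfsg.Agent.H816.IMEig.Col
  Cfsg.Agent.H877.BSgn Cfsg.Agent.H995.BSch
open scoped BigOperators ComplexConjugate

theorem det_v0 : (∑ u, ∑ w, (t8 u w : ℂ) * v0 u ^ 4) *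
        (((∑ u, ∑ w, (t8 u w : ℂ) * v0 u ^ 2) * (∑ u, ∑ w, (t8 u w : ℂ) * v0 w ^ 2) +
          2 * (∑ u, ∑ w, (t8 u w : ℂ) * (v0 u * v0 w)) ^ 2) / 3) -
      (∑ u, ∑ w, (t8 u w : ℂ) * v0 u ^ 2) ^ 2 * (∑ u, ∑ w, (t8 u w : ℂ) * (v0 u ^ 2 * v0 w ^ 2)) ≠ 0 := by
  simp only [Fin.sum_univ_eight]
  simp [t8, v0]
  norm_num

/-- the sum over the group -/
theorem two_sum_V [Fintype M.G] [Fintype (X0 M)] [DecidableEq (X0 M)] (h : Col M.G (X0 M) (Fin 8) (cc M) 0) :
    ∃ n : ℕ, 2 ≤ n ∧ ∑ g : M.G,
    ((h.sub v0).toRepresentation.character g ^ 3 +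
      3 * (h.sub v0).toRepresentation.character g * (h.sub v0).toRepresentation.character (g * g) +
      2 * (h.sub v0).toRepresentation.character (g * (g * g))) / 6 *
      (h.sub v0).toRepresentation.character g = n * (Nat.card M.G : ℂ) := by
  obtain ⟨z₀, -, h2⟩ := exists_z8'
  exact two_le_symCube h (x₀ := QuotientGroup.mk 1) (z₀ := z₀) (t := t8) h2 det_v0

theorem SS_v0 : SS t8 v0 = 6210000 := by
  unfold SS
  simp only [Fin.sum_univ_eight]
  simp [t8, v0]
  norm_num

/-- the character of degree `4371` is real -/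
theorem real_V [Finite M.G] [Fintype (X0 M)] [DecidableEq (X0 M)] (h : Col M.G (X0 M) (Fin 8) (cc M) 0) (g : M.G) :
    conj ((h.sub v0).toRepresentation.character g) = (h.sub v0).toRepresentation.character g := by
  obtain ⟨z₀, h1, h2⟩ := exists_z8'
  have h3 := Cfsg.Agent.H740.K4.Scheme.character_eq h (x₀ := QuotientGroup.mk 1) (z₀ := z₀) (t := t8) h2
    (by rw [h1]; exact eigv0) (by rw [SS_v0]; norm_num) g
  have e7 : conj (7 : ℂ) = 7 := Complex.conj_ofNat 7
  have e28 : conj (28 : ℂ) = 28 := Complex.conj_ofNat 28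
  have hv : ∀ u : Fin 8, conj (v0 u) = v0 u := by
    intro u
    fin_cases u <;> simp [v0, e7, e28]
  rw [h3, map_mul, map_sum, map_inv₀, SS_v0]
  simp only [hv]
  congr 2
  exact Complex.conj_ofNat 6210000

/-- **`[Sym³ V, V] ≥ 2`** for the character `V` of degree `4371` of the Baby Monster. -/
theorem two_V [Fintype M.G] [Fintype (X0 M)] [DecidableEq (X0 M)] (h : Col M.G (X0 M) (Fin 8) (cc M) 0) :
    ∃ n : ℕ, 2 ≤ n ∧ classInner (fun g : M.G => ((h.sub v0).toRepresentation.character g ^ 3 +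
      3 * (h.sub v0).toRepresentation.character g * (h.sub v0).toRepresentation.character (g * g) +
      2 * (h.sub v0).toRepresentation.character (g * g * g)) / 6) (h.sub v0).toRepresentation.character = n := by
  obtain ⟨n, hn, h1⟩ := two_sum_V h
  refine ⟨n, hn, ?_⟩
  have hc : (Nat.card M.G : ℂ) ≠ 0 := by exact_mod_cast (Nat.card_pos (α := M.G)).ne'
  rw [classInner_def]
  simp only [real_V h, mul_assoc] at h1 ⊢
  rw [h1, mul_comm, mul_assoc, mul_inv_cancel₀ hc, mul_one]

theorem two_V_ne [Fintype M.G] [Fintype (X0 M)] [DecidableEq (X0 M)] (h : Col M.G (X0 M) (Fin 8) (cc M) 0) :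
    classInner (fun g : M.G => ((h.sub v0).toRepresentation.character g ^ 3 +
      3 * (h.sub v0).toRepresentation.character g * (h.sub v0).toRepresentation.character (g * g) +
      2 * (h.sub v0).toRepresentation.character (g * g * g)) / 6) (h.sub v0).toRepresentation.character ≠ 0 ∧
    classInner (fun g : M.G => ((h.sub v0).toRepresentation.character g ^ 3 +
      3 * (h.sub v0).toRepresentation.character g * (h.sub v0).toRepresentation.character (g * g) +
      2 * (h.sub v0).toRepresentation.character (g * g * g)) / 6) (h.sub v0).toRepresentation.character ≠ 1 := by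
  obtain ⟨n, hn, h1⟩ := two_V h
  rw [h1]
  refine ⟨fun h0 => ?_, fun h0 => ?_⟩
  · have : n = 0 := by exact_mod_cast h0
    omega
  · have : n = 1 := by exact_mod_cast h0
    omega

end Cfsg.Agent.H725.BS
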