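import Cfsg.Agent.H725.BS.BInst
import Cfsg.Agent.H797.BR.Cube

/-!
# The characters of degree 4371, 63532485, 13508418144 of the Baby Monster and the symmetric cube (helper725)
-/

set_option autoImplicit false
set_option linter.constructorNameAsVariable false

namespace Cfsg.Agent.H725.BS

open Cfsg Cfsg.Agent.Characters.Core Cfsg.Agent.BabyM.Inst Cfsg.Agent.H816.IMEig Cfsg.Agent.H816.IMEig.Col
  Cfsg.Agent.H877.BSgn Cfsg.Agent.H995.BSch
open scoped BigOperators ComplexConjugate

/-- The symmetric cube of a class function. -/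
noncomputable def cube {G : Type*} [Group G] (f : G → ℂ) : G → ℂ :=
  fun g => (f g ^ 3 + 3 * f g * f (g * g) + 2 * f (g * g * g)) / 6

section

variable [Finite M.G] [Fintype (X0 M)] [DecidableEq (X0 M)] (h : Col M.G (X0 M) (Fin 8) (cc M) 0)
variable {θ : ℂ} {ω : Fin 8 → ℂ}

/-- The character of the spherical function `ω`. -/
noncomputable def psi (ω : Fin 8 → ℂ) : M.G → ℂ := (h.sub ω).toRepresentation.character

theorem psi_irr (hE : Eig (3 : Fin 8) 0 t8 θ ω) : IsIrrCharacter M.G (psi h ω) := by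
  obtain ⟨z₀, h1, h2⟩ := exists_z8'
  exact isIrrCharacter_of_rep _ (h.irr (x₀ := QuotientGroup.mk 1) (z₀ := z₀) (t := t8) h2
    (by rw [h1]; exact hE))

theorem psi_deg (hE : Eig (3 : Fin 8) 0 t8 θ ω) {f : ℕ} (hf : (f : ℂ) * SS t8 ω = 27143910000) :
    psi h ω 1 = f := by
  obtain ⟨z₀, h1, h2⟩ := exists_z8'
  have hS : SS t8 ω ≠ 0 := by
    intro h0
    rw [h0, mul_zero] at hf
    exact absurd hf.symm (by norm_num)
  show (h.sub ω).toRepresentation.character 1 = f
  rw [Representation.char_one]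
  have h3 := h.finrank_mul (x₀ := QuotientGroup.mk 1) (z₀ := z₀) (t := t8) h2 (by rw [h1]; exact hE) hS
  have h4 : (Fintype.card (X0 M) : ℂ) = 27143910000 := by
    have h5 := card_X0 (M := M) BabyM.Instance.all
    rw [Nat.card_eq_fintype_card] at h5
    rw [h5]
    norm_num
  rw [h4, ← hf] at h3
  exact mul_right_cancel₀ hS h3

theorem psi_real (hE : Eig (3 : Fin 8) 0 t8 θ ω) (hS : SS t8 ω ≠ 0) (hω : ∀ u, conj (ω u) = ω u) (g : M.G) :
    conj (psi h ω g) = psi h ω g := by
  obtain ⟨z₀, h1, h2⟩ := exists_z8'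
  have h3 := Cfsg.Agent.H740.K4.Scheme.character_eq h (x₀ := QuotientGroup.mk 1) (z₀ := z₀) (t := t8) h2
    (by rw [h1]; exact hE) hS g
  have h4 : conj (SS t8 ω) = SS t8 ω := by
    unfold SS
    rw [map_sum]
    refine Finset.sum_congr rfl fun u _ => ?_
    rw [map_mul, map_pow, hω, Complex.conj_natCast]
  show conj ((h.sub ω).toRepresentation.character g) = (h.sub ω).toRepresentation.character g
  rw [h3, map_mul, map_sum, map_inv₀, h4]
  simp only [hω]

end

theorem cube_ne_zero [Fintype M.G] [Fintype (X0 M)] [DecidableEq (X0 M)]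
    (h : Col M.G (X0 M) (Fin 8) (cc M) 0) {ω₁ ω : Fin 8 → ℂ} (hr : ∀ g, conj (psi h ω g) = psi h ω g)
    (hK : ∑ u, ((∑ w, t8 u w : ℕ) : ℂ) * (ω₁ u ^ 3 * ω u) ≠ 0) : classInner (cube (psi h ω₁)) (psi h ω) ≠ 0 := by
  obtain ⟨z₀, -, h2⟩ := exists_z8'
  have h3 := Cfsg.Agent.H797.BR.sum_ne_zero_of_krein_cube h (x₀ := QuotientGroup.mk 1) (z₀ := z₀) (t := t8) h2 hK
  have hc : (Nat.card M.G : ℂ) ≠ 0 := by exact_mod_cast (Nat.card_pos (α := M.G)).ne'
  rw [classInner_def]
  refine mul_ne_zero (inv_ne_zero hc) ?_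
  simp only [hr]
  exact h3

theorem e_conj (n : ℕ) [n.AtLeastTwo] : conj (OfNat.ofNat n : ℂ) = OfNat.ofNat n := Complex.conj_ofNat n

theorem v0_real (u : Fin 8) : conj (v0 u) = v0 u := by
  have e7 : conj (7 : ℂ) = 7 := Complex.conj_ofNat 7
  have e28 : conj (28 : ℂ) = 28 := Complex.conj_ofNat 28
  fin_cases u <;> simp [v0, e7, e28]

theorem v1_real (u : Fin 8) : conj (v1 u) = v1 u := by
  have e7 : conj (7 : ℂ) = 7 := Complex.conj_ofNat 7
  have e1 : conj (969 : ℂ) = 969 := Complex.conj_ofNat 969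
  have e2 : conj (20672 : ℂ) = 20672 := Complex.conj_ofNat 20672
  fin_cases u <;> simp [v1, e7, e1, e2]

theorem v2_real (u : Fin 8) : conj (v2 u) = v2 u := by
  have e1 : conj (29393 : ℂ) = 29393 := Complex.conj_ofNat 29393
  have e2 : conj (4630528 : ℂ) = 4630528 := Complex.conj_ofNat 4630528
  fin_cases u <;> simp [v2, e1, e2]

theorem SS_v1 : (63532485 : ℂ) * SS t8 v1 = 27143910000 := by
  unfold SS
  simp only [Fin.sum_univ_eight]
  simp [t8, v1]
  norm_num

theorem SS_v2 : (13508418144 : ℂ) * SS t8 v2 = 27143910000 := by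
  unfold SS
  simp only [Fin.sum_univ_eight]
  simp [t8, v2]
  norm_num

theorem SS_v1_ne : SS t8 v1 ≠ 0 := fun h => by
  have := SS_v1
  rw [h, mul_zero] at this
  exact absurd this.symm (by norm_num)

theorem SS_v2_ne : SS t8 v2 ≠ 0 := fun h => by
  have := SS_v2
  rw [h, mul_zero] at this
  exact absurd this.symm (by norm_num)

section

variable [Finite M.G] [Fintype (X0 M)] [DecidableEq (X0 M)] (h : Col M.G (X0 M) (Fin 8) (cc M) 0)

theorem irr0 : IsIrrCharacter M.G (psi h v0) := psi_irr h eigv0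

theorem irr1 : IsIrrCharacter M.G (psi h v1) := psi_irr h eigv1

theorem irr2 : IsIrrCharacter M.G (psi h v2) := psi_irr h eigv2

theorem deg0 : psi h v0 1 = 4371 := by
  have := psi_deg h eigv0 (f := 4371) (by rw [SS_v0]; norm_num)
  exact_mod_cast this

theorem deg1 : psi h v1 1 = 63532485 := by
  have := psi_deg h eigv1 (f := 63532485) (by exact_mod_cast SS_v1)
  exact_mod_cast this

theorem deg2 : psi h v2 1 = 13508418144 := by
  have := psi_deg h eigv2 (f := 13508418144) (by exact_mod_cast SS_v2)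
  exact_mod_cast this

theorem real0 (g : M.G) : conj (psi h v0 g) = psi h v0 g := psi_real h eigv0 (by rw [SS_v0]; norm_num) v0_real g

theorem real1 (g : M.G) : conj (psi h v1 g) = psi h v1 g := psi_real h eigv1 SS_v1_ne v1_real g

theorem real2 (g : M.G) : conj (psi h v2 g) = psi h v2 g := psi_real h eigv2 SS_v2_ne v2_real g

theorem ne01 : psi h v0 ≠ psi h v1 := fun e => by
  have := congrFun e 1
  rw [deg0, deg1] at this
  exact absurd this (by norm_num)

theorem ne02 : psi h v0 ≠ psi h v2 := fun e => by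
  have := congrFun e 1
  rw [deg0, deg2] at this
  exact absurd this (by norm_num)

theorem ne12 : psi h v1 ≠ psi h v2 := fun e => by
  have := congrFun e 1
  rw [deg1, deg2] at this
  exact absurd this (by norm_num)

end

section

variable [Fintype M.G] [Fintype (X0 M)] [DecidableEq (X0 M)] (h : Col M.G (X0 M) (Fin 8) (cc M) 0)

theorem cube1 : classInner (cube (psi h v0)) (psi h v1) ≠ 0 := by
  refine cube_ne_zero h (real1 h) ?_
  simp only [Fin.sum_univ_eight]
  simp [t8, v0, v1]
  norm_num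

theorem cube2 : classInner (cube (psi h v0)) (psi h v2) ≠ 0 := by
  refine cube_ne_zero h (real2 h) ?_
  simp only [Fin.sum_univ_eight]
  simp [t8, v0, v2]
  norm_num

theorem cube0 : ∃ n : ℕ, 2 ≤ n ∧ classInner (cube (psi h v0)) (psi h v0) = n := two_V h

end

end Cfsg.Agent.H725.BS
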