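import Cfsg.Agent.H725.BS.BNum

/-!
# The character of degree 356054375 of the Baby Monster (helper725)
-/

set_option autoImplicit false
set_option linter.constructorNameAsVariable false

namespace Cfsg.Agent.H725.BS

open Cfsg Cfsg.Agent.Characters.Core Cfsg.Agent.BabyM.Inst Cfsg.Agent.H816.IMEig Cfsg.Agent.H816.IMEig.Col
  Cfsg.Agent.H877.BSgn Cfsg.Agent.H995.BSch
open scoped BigOperators ComplexConjugate

/-- Removing `n` copies of an irreducible constituent of multiplicity `m ≥ n`. -/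
theorem isCharacter_sub {G : Type*} [Group G] [Fintype G] {Ψ χ : G → ℂ} (hΨ : IsCharacter G Ψ)
    (hχ : IsIrrCharacter G χ) {m n : ℕ} (hm : classInner Ψ χ = m) (hn : n ≤ m) :
    IsCharacter G (fun g => Ψ g - n * χ g) := by
  classical
  have := finite_irr (G := G)
  have := Fintype.ofFinite (IrrCharacter G)
  obtain ⟨k, hk⟩ := isCharacter_iff.1 hΨ
  have h1 : k ⟨χ, hχ⟩ = m := by
    have h2 := classInner_sum_nsmul_irr k ⟨χ, hχ⟩
    rw [← hk] at h2
    have h3 : ((k ⟨χ, hχ⟩ : ℕ) : ℂ) = m := by rw [← h2]; exact hm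
    exact_mod_cast h3
  refine isCharacter_iff.2 ⟨fun ψ => if ψ = ⟨χ, hχ⟩ then m - n else k ψ, ?_⟩
  funext g
  have h4 : Ψ g = ∑ ψ, (k ψ : ℂ) * (ψ : G → ℂ) g := by
    conv_lhs => rw [hk]
    simp [Finset.sum_apply, nsmul_eq_mul]
  have h5 : (∑ ψ : IrrCharacter G, (if ψ = ⟨χ, hχ⟩ then m - n else k ψ) • (ψ : G → ℂ)) g =
      ∑ ψ : IrrCharacter G, ((if ψ = ⟨χ, hχ⟩ then m - n else k ψ : ℕ) : ℂ) * (ψ : G → ℂ) g := by
    rw [Finset.sum_apply]
    refine Finset.sum_congr rfl fun ψ _ => ?_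
    rw [Pi.smul_apply, nsmul_eq_mul]
  rw [h5, h4, ← Finset.add_sum_erase _ _ (Finset.mem_univ (⟨χ, hχ⟩ : IrrCharacter G)),
    ← Finset.add_sum_erase (s := Finset.univ) (a := (⟨χ, hχ⟩ : IrrCharacter G))
      (fun ψ : IrrCharacter G => ((if ψ = ⟨χ, hχ⟩ then m - n else k ψ : ℕ) : ℂ) * (ψ : G → ℂ) g)
      (Finset.mem_univ _), if_pos rfl, h1, Nat.cast_sub hn]
  have h6 : ∑ ψ ∈ Finset.univ.erase (⟨χ, hχ⟩ : IrrCharacter G),
      ((if ψ = ⟨χ, hχ⟩ then m - n else k ψ : ℕ) : ℂ) * (ψ : G → ℂ) g =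
      ∑ ψ ∈ Finset.univ.erase (⟨χ, hχ⟩ : IrrCharacter G), (k ψ : ℂ) * (ψ : G → ℂ) g := by
    refine Finset.sum_congr rfl fun ψ hψ => ?_
    rw [if_neg (Finset.ne_of_mem_erase hψ)]
  rw [h6]
  ring

/-- The inner product of a character with an irreducible one, a nonzero natural number. -/
theorem one_le_of_ne {G : Type*} [Group G] [Fintype G] {Ψ χ : G → ℂ} (hΨ : IsCharacter G Ψ)
    (hχ : IsIrrCharacter G χ) (h : classInner Ψ χ ≠ 0) : ∃ m : ℕ, 1 ≤ m ∧ classInner Ψ χ = m := by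
  obtain ⟨m, hm⟩ := classInner_isNat hΨ (isIrr_isCharacter hχ)
  refine ⟨m, ?_, hm⟩
  rcases Nat.eq_zero_or_pos m with h0 | h0
  · exfalso
    apply h
    rw [hm, h0, Nat.cast_zero]
  · exact h0

/-- the inner product with another irreducible character does not change -/
theorem inner_sub {G : Type*} [Group G] [Fintype G] (Ψ : G → ℂ) {χ ψ : G → ℂ} (hχ : IsIrrCharacter G χ)
    (hψ : IsIrrCharacter G ψ) (hne : χ ≠ ψ) (n : ℕ) :
    classInner (fun g => Ψ g - n * χ g) ψ = classInner Ψ ψ := by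
  have h1 : (fun g => Ψ g - (n : ℂ) * χ g) = Ψ - (n : ℂ) • χ := by
    funext g
    rfl
  rw [h1, classInner_sub_left, classInner_smul_left, classInner_irr_ne hχ hψ hne, mul_zero, sub_zero]

section

variable [Fintype M.G] [Fintype (X0 M)] [DecidableEq (X0 M)] (h : Col M.G (X0 M) (Fin 8) (cc M) 0)

/-- The character `Sym³ V - 2 V - ψ₁ - ψ₂`. -/
noncomputable def RR : M.G → ℂ :=
  fun g => cube (psi h v0) g - 2 * psi h v0 g - psi h v1 g - psi h v2 g

theorem isCharacter_RR : IsCharacter M.G (RR h) := by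
  have hc : IsCharacter M.G (cube (psi h v0)) :=
    Cfsg.Agent.H797.BR.isCharacter_symCube (isIrr_isCharacter (irr0 h))
  obtain ⟨m0, hm0, e0⟩ := cube0 h
  have h1 := isCharacter_sub hc (irr0 h) e0 hm0
  have i1 := inner_sub (cube (psi h v0)) (irr0 h) (irr1 h) (ne01 h) 2
  obtain ⟨m1, hm1, e1⟩ := one_le_of_ne h1 (irr1 h) (by rw [i1]; exact cube1 h)
  have h2 := isCharacter_sub h1 (irr1 h) e1 hm1
  have i2 := inner_sub (cube (psi h v0)) (irr0 h) (irr2 h) (ne02 h) 2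
  have i3 := inner_sub (fun g => cube (psi h v0) g - ((2 : ℕ) : ℂ) * psi h v0 g) (irr1 h) (irr2 h) (ne12 h) 1
  obtain ⟨m2, hm2, e2⟩ := one_le_of_ne h2 (irr2 h) (by rw [i3, i2]; exact cube2 h)
  have h3 := isCharacter_sub h2 (irr2 h) e2 hm2
  have e : RR h = fun g => cube (psi h v0) g - ((2 : ℕ) : ℂ) * psi h v0 g - ((1 : ℕ) : ℂ) * psi h v1 g -
      ((1 : ℕ) : ℂ) * psi h v2 g := by
    funext g
    simp [RR]
  rw [e]
  exact h3

omit [Fintype M.G] in
theorem RR_one [Finite M.G] : RR h 1 = 356054375 := by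
  unfold RR cube
  rw [mul_one, mul_one, deg0, deg1, deg2]
  norm_num

end

end Cfsg.Agent.H725.BS
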